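/-
Jordan: four-fold transitive groups in which a four-point stabiliser has odd order.
-/
import Mathlib
import Cfsg.Agent.Lib.Involutions.BrauerSuzuki
import Cfsg.Agent.Lib.Cores.PCore
import Cfsg.Agent.Lib.FourTransitive.FourGroupOdd
import Cfsg.Agent.S0713

set_option autoImplicit false
set_option linter.unusedSectionVars false

open Cfsg Equiv Equiv.Perm

namespace CfsgLib.FourTransitive

variable {α : Type*} [Fintype α] [DecidableEq α] {G : Subgroup (Perm α)}

/-- `G` is four-fold transitive and elements fixing four points have odd order. -/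
structure OddQuad (G : Subgroup (Perm α)) : Prop where
  trans : ∀ a b : Fin 4 → α, Function.Injective a → Function.Injective b →
    ∃ g ∈ G, ∀ i, g (a i) = b i
  odd : ∀ (a : Fin 4 → α) (g : Perm α), Function.Injective a → g ∈ G → (∀ i, g (a i) = a i) →
    Odd (orderOf g)

/-- The fixed points of a permutation. -/
def fixSet (w : Perm α) : Finset α := w.supportᶜ

@[simp] theorem mem_fixSet {w : Perm α} {p : α} : p ∈ fixSet w ↔ w p = p := by
  simp [fixSet]

theorem sq_apply {w : Perm α} (hw : w * w = 1) (p : α) : w (w p) = p := by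
  rw [← Perm.mul_apply, hw, Perm.one_apply]

theorem card_fixSet_mod_two {w : Perm α} (hw : w * w = 1) :
    (fixSet w).card % 2 = Fintype.card α % 2 := by
  haveI : Fact (Nat.Prime 2) := ⟨Nat.prime_two⟩
  exact card_compl_support_modEq (p := 2) (n := 1) (by rw [pow_one, pow_two, hw])

theorem apply_mem_fixSet {g w : Perm α} (hc : g * w = w * g) {p : α} (hp : p ∈ fixSet w) :
    g p ∈ fixSet w := by
  rw [mem_fixSet] at hp ⊢
  rw [← Perm.mul_apply, ← hc, Perm.mul_apply, hp]

theorem OddQuad.card_fixSet_le (D : OddQuad G) {w : Perm α} (hwG : w ∈ G) (hw : orderOf w = 2) :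
    (fixSet w).card ≤ 3 := by
  by_contra hlt
  obtain ⟨t, ht, htc⟩ := Finset.exists_subset_card_eq (by omega : 4 ≤ (fixSet w).card)
  have := D.odd (fun i => ((t.equivFin.trans (finCongr htc)).symm i : α)) w
    (Subtype.val_injective.comp (Equiv.injective _)) hwG
    (fun i => mem_fixSet.1 (ht (Subtype.prop _)))
  rw [hw] at this
  exact absurd this (by decide)

/-- Two involutions agreeing on a quadruple are conjugate by an element fixing it. -/
theorem OddQuad.conj_of_agree (D : OddQuad G) {q : Fin 4 → α} (hq : Function.Injective q)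
    {a a' : Perm α} (ha : a ∈ G) (ha' : a' ∈ G) (ha2 : a * a = 1) (ha2' : a' * a' = 1)
    (h : ∀ i, a (q i) = a' (q i)) :
    ∃ g ∈ G, (∀ i, g (q i) = q i) ∧ g * a * g⁻¹ = a' ∧
      ∀ c : Perm α, Commute c a → Commute c a' → Commute c g := by
  set r := a * a' with hr
  have hfix : ∀ i, r (q i) = q i := fun i => by
    rw [hr, Perm.mul_apply, ← h, sq_apply ha2]
  obtain ⟨j, hj⟩ := D.odd q r hq (mul_mem ha ha') hfix
  refine ⟨r ^ j, pow_mem (mul_mem ha ha') _, fun i => ?_, ?_,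
    fun c h1 h2 => (h1.mul_right h2).pow_right _⟩
  · have hs : r ∈ MulAction.stabilizer (Perm α) (q i) := by simpa using hfix i
    simpa using pow_mem hs j
  · have hai : a⁻¹ = a := inv_eq_of_mul_eq_one_right ha2
    have hai' : a'⁻¹ = a' := inv_eq_of_mul_eq_one_right ha2'
    have hsc : SemiconjBy a (r ^ j)⁻¹ (r ^ j) := by
      have : SemiconjBy a r⁻¹ r := by
        show a * r⁻¹ = r * a
        rw [hr, mul_inv_rev, hai, hai', mul_assoc]
      simpa [inv_pow] using this.pow_right j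
    rw [mul_assoc, hsc.eq, ← mul_assoc, ← pow_add]
    have : r ^ (j + j) = r⁻¹ := by
      rw [eq_inv_iff_mul_eq_one, ← pow_succ, show j + j + 1 = orderOf r by omega, pow_orderOf_eq_one]
    rw [this, hr, mul_inv_rev, hai, hai', mul_assoc, ha2, mul_one]

theorem OddQuad.exists_involution_pow (D : OddQuad G) {q : Fin 4 → α} (hq : Function.Injective q)
    {g : Perm α} (hg : g ∈ G) {σ : Fin 4 → Fin 4} (hσ : ∀ i, σ (σ i) = i) (hne : σ ≠ id)
    (h : ∀ i, g (q i) = q (σ i)) :
    ∃ d : ℕ, orderOf (g ^ d) = 2 ∧ ∀ i, (g ^ d) (q i) = q (σ i) := by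
  have hfix : ∀ i, (g * g) (q i) = q i := fun i => by rw [Perm.mul_apply, h, h, hσ]
  obtain ⟨j, hj⟩ := D.odd q (g * g) hq (mul_mem hg hg) hfix
  have hpow : ∀ i, (g ^ (2 * j + 1)) (q i) = q (σ i) := fun i => by
    rw [pow_succ, Perm.mul_apply, h, pow_mul, pow_two]
    have hs : g * g ∈ MulAction.stabilizer (Perm α) (q (σ i)) := by simpa using hfix (σ i)
    simpa using pow_mem hs j
  refine ⟨2 * j + 1, CfsgLib.Involutions.orderOf_eq_two_iff.2 ⟨?_, fun h1 => hne ?_⟩, hpow⟩
  · rw [← (Commute.refl g).mul_pow, ← hj, pow_orderOf_eq_one]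
  · funext i
    have := hpow i
    rw [h1, Perm.one_apply] at this
    exact (hq this).symm

theorem OddQuad.exists_pair (D : OddQuad G) {q : Fin 4 → α} (hq : Function.Injective q) :
    ∃ x y : Perm α, x ∈ G ∧ y ∈ G ∧ orderOf x = 2 ∧ orderOf y = 2 ∧ Commute x y ∧
      x (q 0) = q 0 ∧ x (q 1) = q 1 ∧ x (q 2) = q 3 ∧ x (q 3) = q 2 ∧
      y (q 0) = q 1 ∧ y (q 1) = q 0 ∧ y (q 2) = q 2 ∧ y (q 3) = q 3 := by
  let s : Fin 4 → Fin 4 := ![0, 1, 3, 2]
  let t : Fin 4 → Fin 4 := ![1, 0, 2, 3]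
  have hs : ∀ i, s (s i) = i := by decide
  have ht : ∀ i, t (t i) = i := by decide
  have hst : ∀ i, s (t i) = t (s i) := by decide
  obtain ⟨g₀, hg₀, hg₀q⟩ := D.trans q (q ∘ s) hq
    (hq.comp (Function.LeftInverse.injective hs))
  obtain ⟨d, hd, hdq⟩ := D.exists_involution_pow hq hg₀ hs (by decide) hg₀q
  set x := g₀ ^ d
  have hxG : x ∈ G := pow_mem hg₀ d
  have hx2 := CfsgLib.Involutions.mul_self_eq_one hd
  obtain ⟨g₁, hg₁, hg₁q⟩ := D.trans q (q ∘ t) hq
    (hq.comp (Function.LeftInverse.injective ht))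
  have hinv : ∀ i, g₁⁻¹ (q i) = q (t i) := fun i => by
    rw [Perm.inv_def, Equiv.symm_apply_eq, hg₁q, Function.comp_apply, ht]
  obtain ⟨h, hh, hhq, hhc, -⟩ := D.conj_of_agree hq (mul_mem (mul_mem hg₁ hxG) (inv_mem hg₁)) hxG
    (by simp [mul_assoc, ← mul_assoc x x, hx2]) hx2 (fun i => by
      rw [Perm.mul_apply, Perm.mul_apply, hinv, hdq, hg₁q, Function.comp_apply, ← hst, ht, hdq])
  have hgx : Commute (h * g₁) x := by
    show h * g₁ * x = x * (h * g₁)
    conv_rhs => rw [← hhc]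
    group
  obtain ⟨e, he, heq⟩ := D.exists_involution_pow hq (mul_mem hh hg₁) ht (by decide)
    (fun i => by rw [Perm.mul_apply, hg₁q, Function.comp_apply, hhq])
  exact ⟨x, (h * g₁) ^ e, hxG, pow_mem (mul_mem hh hg₁) e, hd, he, (hgx.pow_left e).symm,
    hdq 0, hdq 1, hdq 2, hdq 3, heq 0, heq 1, heq 2, heq 3⟩

theorem injective_four {a b c d : α} (h1 : a ≠ b) (h2 : a ≠ c) (h3 : a ≠ d) (h4 : b ≠ c)
    (h5 : b ≠ d) (h6 : c ≠ d) : Function.Injective ![a, b, c, d] := by
  intro i j h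
  fin_cases i <;> fin_cases j <;> simp_all [eq_comm]

/-- Generating pairs of four-groups with regular orbits are conjugate. -/
theorem OddQuad.conj_four (D : OddQuad G) {q : Fin 4 → α} (hq : Function.Injective q)
    {a b a' b' : Perm α} (ha : a ∈ G) (hb : b ∈ G) (ha' : a' ∈ G) (hb' : b' ∈ G)
    (ha2 : a * a = 1) (hb2 : b * b = 1) (hab : Commute a b)
    (ha2' : a' * a' = 1) (hb2' : b' * b' = 1) (hab' : Commute a' b')
    {p p' : α} (hp1 : a p ≠ p) (hp2 : b p ≠ p) (hp3 : (a * b) p ≠ p)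
    (hp1' : a' p' ≠ p') (hp2' : b' p' ≠ p') (hp3' : (a' * b') p' ≠ p') :
    ∃ g ∈ G, g * a * g⁻¹ = a' ∧ g * b * g⁻¹ = b' := by
  have hmove : ∀ {a b : Perm α} (p : α), a * a = 1 → b * b = 1 → Commute a b → a p ≠ p → b p ≠ p →
      (a * b) p ≠ p → Function.Injective ![p, a p, b p, a (b p)] := by
    intro a b p ha hb hc h1 h2 h3
    have e : a (b p) = b (a p) := by rw [← Perm.mul_apply, hc.eq, Perm.mul_apply]
    refine injective_four h1.symm h2.symm h3.symm ?_ ?_ ?_
    · intro h; exact h3 (by rw [Perm.mul_apply, ← h, sq_apply ha])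
    · intro h; exact h2 (a.injective h).symm
    · intro h
      rw [e] at h
      exact h1 (b.injective h).symm
  have himg : ∀ {a b : Perm α} (p : α) (r : Perm α), a * a = 1 → b * b = 1 → Commute a b →
      (∀ i, r (![p, a p, b p, a (b p)] i) = q i) →
      (∀ i, (r * a * r⁻¹) (q i) = q (![1, 0, 3, 2] i)) ∧
      (∀ i, (r * b * r⁻¹) (q i) = q (![2, 3, 0, 1] i)) := by
    intro a b p r ha hb hc hr
    have e : b (a p) = a (b p) := by rw [← Perm.mul_apply, ← hc.eq, Perm.mul_apply]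
    have h0 : r p = q 0 := hr 0
    have h1 : r (a p) = q 1 := hr 1
    have h2 : r (b p) = q 2 := hr 2
    have h3 : r (a (b p)) = q 3 := hr 3
    constructor <;> intro i <;>
      rw [Perm.mul_apply, Perm.mul_apply, ← hr i, Perm.inv_def, Equiv.symm_apply_apply] <;>
      fin_cases i <;> simp [h0, h1, h2, h3, e, sq_apply ha, sq_apply hb]
    · rw [← e, sq_apply hb, h1]
  obtain ⟨r, hr, hrq⟩ := D.trans _ q (hmove p ha2 hb2 hab hp1 hp2 hp3) hq
  obtain ⟨r', hr', hrq'⟩ := D.trans _ q (hmove p' ha2' hb2' hab' hp1' hp2' hp3') hq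
  obtain ⟨hA, hB⟩ := himg p r ha2 hb2 hab hrq
  obtain ⟨hA', hB'⟩ := himg p' r' ha2' hb2' hab' hrq'
  have hcj : ∀ (r : Perm α) {c : Perm α}, c * c = 1 → r * c * r⁻¹ * (r * c * r⁻¹) = 1 := by
    intro r c hc; simp [mul_assoc, ← mul_assoc c c, hc]
  have hcc : ∀ (r : Perm α) {c d : Perm α}, Commute c d → Commute (r * c * r⁻¹) (r * d * r⁻¹) :=
    fun r c d h => by
      show r * c * r⁻¹ * (r * d * r⁻¹) = r * d * r⁻¹ * (r * c * r⁻¹)
      simp only [mul_assoc, inv_mul_cancel_left]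
      rw [← mul_assoc c d, h.eq, mul_assoc]
  obtain ⟨h, hh, hhq, hha, -⟩ := D.conj_of_agree hq (mul_mem (mul_mem hr ha) (inv_mem hr))
    (mul_mem (mul_mem hr' ha') (inv_mem hr')) (hcj r ha2) (hcj r' ha2')
    (fun i => by rw [hA, hA'])
  have hbh : ∀ i, (h * (r * b * r⁻¹) * h⁻¹) (q i) = q (![2, 3, 0, 1] i) := fun i => by
    have : h⁻¹ (q i) = q i := by rw [Perm.inv_def, Equiv.symm_apply_eq, hhq]
    rw [Perm.mul_apply, Perm.mul_apply, this, hB, hhq]
  obtain ⟨k, hk, -, hkb, hkc⟩ := D.conj_of_agree hq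
    (mul_mem (mul_mem hh (mul_mem (mul_mem hr hb) (inv_mem hr))) (inv_mem hh))
    (mul_mem (mul_mem hr' hb') (inv_mem hr')) (hcj h (hcj r hb2)) (hcj r' hb2')
    (fun i => by rw [hbh, hB'])
  have hka : Commute (r' * a' * r'⁻¹) k := hkc _
    (by rw [← hha]; exact hcc h (hcc r hab)) (hcc r' hab')
  refine ⟨r'⁻¹ * k * h * r, mul_mem (mul_mem (mul_mem (inv_mem hr') hk) hh) hr, ?_, ?_⟩
  · calc r'⁻¹ * k * h * r * a * (r'⁻¹ * k * h * r)⁻¹
        = r'⁻¹ * (k * (h * (r * a * r⁻¹) * h⁻¹) * k⁻¹) * r' := by group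
      _ = r'⁻¹ * ((r' * a' * r'⁻¹) * k * k⁻¹) * r' := by rw [hha, hka.eq]
      _ = a' := by group
  · calc r'⁻¹ * k * h * r * b * (r'⁻¹ * k * h * r)⁻¹
        = r'⁻¹ * (k * (h * (r * b * r⁻¹) * h⁻¹) * k⁻¹) * r' := by group
      _ = r'⁻¹ * (r' * b' * r'⁻¹) * r' := by rw [hkb]
      _ = b' := by group

/-- The elements of `G` fixing two given points. -/
def fixTwo (G : Subgroup (Perm α)) (p p' : α) : Subgroup (Perm α) :=
  G ⊓ MulAction.stabilizer (Perm α) p ⊓ MulAction.stabilizer (Perm α) p'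

theorem mem_fixTwo {p p' : α} {g : Perm α} :
    g ∈ fixTwo G p p' ↔ g ∈ G ∧ g p = p ∧ g p' = p' := by
  simp [fixTwo, and_assoc]

/-- The standing data: a quadruple and two commuting involutions inducing transpositions on it. -/
structure Config (G : Subgroup (Perm α)) (q : Fin 4 → α) (x y : Perm α) : Prop where
  quad : OddQuad G
  inj : Function.Injective q
  hxG : x ∈ G
  hyG : y ∈ G
  hx : orderOf x = 2
  hy : orderOf y = 2
  comm : Commute x y
  x0 : x (q 0) = q 0
  x1 : x (q 1) = q 1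
  x2 : x (q 2) = q 3
  x3 : x (q 3) = q 2
  y0 : y (q 0) = q 1
  y1 : y (q 1) = q 0
  y2 : y (q 2) = q 2
  y3 : y (q 3) = q 3

namespace Config

variable {q : Fin 4 → α} {x y : Perm α} (C : Config G q x y)
include C

theorem xx : x * x = 1 := CfsgLib.Involutions.mul_self_eq_one C.hx

theorem yy : y * y = 1 := CfsgLib.Involutions.mul_self_eq_one C.hy

theorem ne (i j : Fin 4) (h : i ≠ j) : q i ≠ q j := fun e => h (C.inj e)

theorem swap_symm : Config G (q ∘ ![2, 3, 0, 1]) y x where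
  quad := C.quad
  inj := C.inj.comp (by decide)
  hxG := C.hyG
  hyG := C.hxG
  hx := C.hy
  hy := C.hx
  comm := C.comm.symm
  x0 := C.y2
  x1 := C.y3
  x2 := C.y0
  x3 := C.y1
  y0 := C.x2
  y1 := C.x3
  y2 := C.x0
  y3 := C.x1

theorem orderOf_z : orderOf (x * y) = 2 :=
  CfsgLib.Involutions.orderOf_mul_eq_two C.hx C.hy C.comm fun h => C.ne 0 1 (by decide) (by
    rw [← C.y0, ← h, C.x0])

theorem outside {p : α} (hp : p ∈ fixSet x) (h0 : p ≠ q 0) (h1 : p ≠ q 1) {p' : α}
    (hp' : p' ∈ fixSet x) (h0' : p' ≠ q 0) (h1' : p' ≠ q 1) : p = p' := by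
  by_contra hne
  have hle := C.quad.card_fixSet_le C.hxG C.hx
  have hsub : ({q 0, q 1, p, p'} : Finset α) ⊆ fixSet x := by
    intro t ht
    simp only [Finset.mem_insert, Finset.mem_singleton] at ht
    rcases ht with rfl | rfl | rfl | rfl
    exacts [mem_fixSet.2 C.x0, mem_fixSet.2 C.x1, hp, hp']
  have := Finset.card_le_card hsub
  rw [Finset.card_insert_of_notMem (by simp [C.ne 0 1 (by decide), h0.symm, h0'.symm]),
    Finset.card_insert_of_notMem (by simp [h1.symm, h1'.symm]),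
    Finset.card_pair hne] at this
  omega

theorem two_le : 2 ≤ (fixSet x).card :=
  Finset.one_lt_card.2 ⟨q 0, mem_fixSet.2 C.x0, q 1, mem_fixSet.2 C.x1, C.ne 0 1 (by decide)⟩

theorem fixSet_eq_of_commute {w : Perm α} (hw : w ∈ fixTwo G (q 0) (q 1)) (hw2 : orderOf w = 2)
    (hc : Commute w x) : fixSet w = fixSet x := by
  obtain ⟨hwG, hw0, hw1⟩ := mem_fixTwo.1 hw
  have hsub : fixSet x ⊆ fixSet w := by
    intro p hp
    rw [mem_fixSet]
    rcases eq_or_ne p (q 0) with rfl | h0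
    · exact hw0
    rcases eq_or_ne p (q 1) with rfl | h1
    · exact hw1
    exact C.outside (apply_mem_fixSet hc hp) (fun h => h0 (w.injective (h.trans hw0.symm)))
      (fun h => h1 (w.injective (h.trans hw1.symm))) hp h0 h1
  refine (Finset.eq_of_subset_of_card_le hsub ?_).symm
  have h1 := C.quad.card_fixSet_le hwG hw2
  have h2 := card_fixSet_mod_two (CfsgLib.Involutions.mul_self_eq_one hw2)
  have h3 := card_fixSet_mod_two C.xx
  have h4 := C.two_le
  have h5 := Finset.card_le_card hsub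
  omega

theorem exists_regular (h8 : 8 ≤ Fintype.card α) :
    ∃ p, x p ≠ p ∧ y p ≠ p ∧ (x * y) p ≠ p := by
  by_contra hno
  push Not at hno
  have hsub : (Finset.univ : Finset α) ⊆ fixSet x ∪ fixSet y ∪ fixSet (x * y) := by
    intro p _
    simp only [Finset.mem_union, mem_fixSet]
    by_cases h1 : x p = p
    · exact Or.inl (Or.inl h1)
    by_cases h2 : y p = p
    · exact Or.inl (Or.inr h2)
    exact Or.inr (hno p h1 h2)
  have hcard := Finset.card_le_card hsub
  rw [Finset.card_univ] at hcard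
  have hu1 := Finset.card_union_add_card_inter (fixSet x ∪ fixSet y) (fixSet (x * y))
  have hu2 := Finset.card_union_add_card_inter (fixSet x) (fixSet y)
  have h1 := C.quad.card_fixSet_le C.hxG C.hx
  have h2 := C.quad.card_fixSet_le C.hyG C.hy
  have h3 := C.quad.card_fixSet_le (mul_mem C.hxG C.hyG) C.orderOf_z
  have m1 := card_fixSet_mod_two C.xx
  have m2 := card_fixSet_mod_two C.yy
  have m3 := card_fixSet_mod_two (CfsgLib.Involutions.mul_self_eq_one C.orderOf_z)
  rcases Nat.even_or_odd (Fintype.card α) with hn | hn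
  · rw [Nat.even_iff] at hn
    omega
  · rw [Nat.odd_iff] at hn
    -- all three fixed sets contain the extra fixed point of `x`
    obtain ⟨e, he, hne⟩ := Finset.exists_mem_notMem_of_card_lt_card
      (s := ({q 0, q 1} : Finset α)) (t := fixSet x)
      (by rw [Finset.card_pair (C.ne 0 1 (by decide))]; have := C.two_le; omega)
    simp only [Finset.mem_insert, Finset.mem_singleton, not_or] at hne
    have hye : y e = e := C.outside (apply_mem_fixSet C.comm.symm he)
      (fun h => hne.2 (y.injective (by rw [h, C.y1])))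
      (fun h => hne.1 (y.injective (by rw [h, C.y0]))) he hne.1 hne.2
    have hxe : x e = e := mem_fixSet.1 he
    have hze : (x * y) e = e := by rw [Perm.mul_apply, hye, hxe]
    have i1 : 0 < (fixSet x ∩ fixSet y).card := Finset.card_pos.2 ⟨e, by simp [hxe, hye]⟩
    have i2 : 0 < ((fixSet x ∪ fixSet y) ∩ fixSet (x * y)).card :=
      Finset.card_pos.2 ⟨e, by simp only [Finset.mem_inter, Finset.mem_union, mem_fixSet]; exact ⟨Or.inl hxe, hze⟩⟩
    omega

/-- In the stabiliser of two points, `x` is the only involution commuting with `x`. -/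
theorem eq_of_commute (h8 : 8 ≤ Fintype.card α) {w : Perm α} (hw : w ∈ fixTwo G (q 0) (q 1))
    (hw2 : orderOf w = 2) (hc : Commute w x) : w = x := by
  by_contra hne
  have hwG := (mem_fixTwo.1 hw).1
  have hwx2 : orderOf (x * w) = 2 :=
    CfsgLib.Involutions.orderOf_mul_eq_two C.hx hw2 hc.symm (Ne.symm hne)
  have hxwK : x * w ∈ fixTwo G (q 0) (q 1) :=
    mul_mem (mem_fixTwo.2 ⟨C.hxG, C.x0, C.x1⟩) hw
  have e1 := C.fixSet_eq_of_commute hw hw2 hc
  have e2 := C.fixSet_eq_of_commute hxwK hwx2 ((Commute.refl x).mul_left hc)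
  obtain ⟨p, hp⟩ : ∃ p, p ∉ fixSet x := by
    by_contra hall
    push Not at hall
    have := Finset.card_le_card (fun p (_ : p ∈ Finset.univ) => hall p)
    have := C.quad.card_fixSet_le C.hxG C.hx
    rw [Finset.card_univ] at *
    omega
  obtain ⟨p', h1', h2', h3'⟩ := C.exists_regular h8
  obtain ⟨g, -, hgx, hgw⟩ := C.quad.conj_four C.inj C.hxG hwG C.hxG C.hyG C.xx
    (CfsgLib.Involutions.mul_self_eq_one hw2) hc.symm C.xx C.yy C.comm
    (p := p) (p' := p') (by simpa using hp) (by rw [← e1] at hp; simpa using hp)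
    (by rw [← e2] at hp; simpa using hp) h1' h2' h3'
  have key : ∀ {u v : Perm α} {p : α}, g * u * g⁻¹ = v → u p = p → v (g p) = g p := by
    intro u v p h hu
    rw [← h, Perm.mul_apply, Perm.mul_apply, Perm.inv_def, Equiv.symm_apply_apply, hu]
  have hmem : ∀ p, x p = p → w p = p → g p ∈ fixSet x ∧ g p ≠ q 0 ∧ g p ≠ q 1 := by
    intro p hxp hwp
    refine ⟨mem_fixSet.2 (key hgx hxp), fun h => ?_, fun h => ?_⟩
    · have := key hgw hwp
      rw [h, C.y0] at this
      exact C.ne 0 1 (by decide) this.symm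
    · have := key hgw hwp
      rw [h, C.y1] at this
      exact C.ne 0 1 (by decide) this
  obtain ⟨a0, b0, c0⟩ := hmem (q 0) C.x0 (mem_fixTwo.1 hw).2.1
  obtain ⟨a1, b1, c1⟩ := hmem (q 1) C.x1 (mem_fixTwo.1 hw).2.2
  exact C.ne 0 1 (by decide) (g.injective (C.outside a0 b0 c0 a1 b1 c1))

end Config

end CfsgLib.FourTransitive
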