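/-
The odd core of a two-point stabiliser and the resulting bound on the degree.
-/
import Cfsg.Agent.Lib.FourTransitive.OddStabilizer

set_option autoImplicit false
set_option linter.unusedSectionVars false

open Cfsg Equiv Equiv.Perm

namespace CfsgLib.FourTransitive

variable {α : Type*} [Fintype α] [DecidableEq α] {G : Subgroup (Perm α)}

/-- The odd core of the stabiliser of two points, inside the symmetric group. -/
def twoCore (G : Subgroup (Perm α)) (p p' : α) : Subgroup (Perm α) :=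
  (oddCore ↥(fixTwo G p p')).map (fixTwo G p p').subtype

theorem twoCore_le (p p' : α) : twoCore G p p' ≤ fixTwo G p p' := Subgroup.map_subtype_le _

theorem odd_card_twoCore (p p' : α) : Odd (Nat.card (twoCore G p p')) := by
  rw [twoCore, Subgroup.card_map_of_injective (Subgroup.subtype_injective _)]
  exact Cores.odd_card_oddCore

theorem twoCore_conj {p p' : α} {a : Perm α}
    (ha : ∀ g ∈ fixTwo G p p', a * g * a⁻¹ ∈ fixTwo G p p') :
    ∀ g ∈ twoCore G p p', a * g * a⁻¹ ∈ twoCore G p p' := by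
  intro g hg
  obtain ⟨g, hg, rfl⟩ := hg
  let φ : ↥(fixTwo G p p') →* ↥(fixTwo G p p') :=
    ((MulAut.conj a).toMonoidHom.comp (fixTwo G p p').subtype).codRestrict _ (fun h => ha h h.2)
  have hinj : Function.Injective φ := fun u v h =>
    Subtype.ext ((MulAut.conj a).injective (congrArg Subtype.val h))
  have hsur : Function.Surjective φ := Finite.surjective_of_injective hinj
  exact ⟨φ g, Cores.map_pPrimeCore_le_of_surjective hsur (Subgroup.mem_map_of_mem φ hg), rfl⟩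

theorem orbit_subgroup_subset {S : Subgroup (Perm α)} {e : α} {s : Finset α}
    (h : ∀ g ∈ S, g e ∈ s) : MulAction.orbit ↥S e ⊆ ↑s := by
  rintro _ ⟨⟨g, hg⟩, rfl⟩
  exact h g hg

theorem card_orbit_mul_card_inf (S : Subgroup (Perm α)) (e : α) :
    Nat.card (MulAction.orbit ↥S e) * Nat.card ↥(S ⊓ MulAction.stabilizer (Perm α) e) =
      Nat.card S := by
  have h := Subgroup.card_mul_index (MulAction.stabilizer ↥S e)
  rw [MulAction.index_stabilizer, ← Nat.card_coe_set_eq] at h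
  rw [← h, mul_comm]
  congr 1
  have e' : (MulAction.stabilizer ↥S e).map S.subtype = S ⊓ MulAction.stabilizer (Perm α) e := by
    ext g
    constructor
    · rintro ⟨⟨g, hg⟩, hge, rfl⟩
      exact ⟨hg, hge⟩
    · rintro ⟨hg, hge⟩
      exact ⟨⟨g, hg⟩, hge, rfl⟩
  rw [← e', Subgroup.card_map_of_injective S.subtype_injective]

theorem OddQuad.exists_fixTwo_map (D : OddQuad G) {p p' : α} (hpp : p ≠ p') {c c' d d' : α}
    (hc : c ≠ p ∧ c ≠ p') (hc' : c' ≠ p ∧ c' ≠ p') (hcc : c ≠ c')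
    (hd : d ≠ p ∧ d ≠ p') (hd' : d' ≠ p ∧ d' ≠ p') (hdd : d ≠ d') :
    ∃ g ∈ fixTwo G p p', g c = d ∧ g c' = d' := by
  obtain ⟨g, hg, h⟩ := D.trans ![p, p', c, c'] ![p, p', d, d']
    (injective_four hpp hc.1.symm hc'.1.symm hc.2.symm hc'.2.symm hcc)
    (injective_four hpp hd.1.symm hd'.1.symm hd.2.symm hd'.2.symm hdd)
  exact ⟨g, mem_fixTwo.2 ⟨hg, h 0, h 1⟩, h 2, h 3⟩

namespace Config

variable {q : Fin 4 → α} {x y : Perm α} (C : Config G q x y)
include C

theorem x_mem : x ∈ fixTwo G (q 0) (q 1) := mem_fixTwo.2 ⟨C.hxG, C.x0, C.x1⟩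

theorem oddComm (h8 : 8 ≤ Fintype.card α) :
    CfsgLib.Involutions.OddComm (⟨x, C.x_mem⟩ : ↥(fixTwo G (q 0) (q 1))) := by
  rintro ⟨g, hg⟩
  rw [← Subgroup.orderOf_coe]
  show Odd (orderOf (x * g * x⁻¹ * g⁻¹))
  rw [← Nat.not_even_iff_odd]
  rintro ⟨m, hm⟩
  set r := x * g * x⁻¹ * g⁻¹ with hr
  have hxi : x⁻¹ = x := inv_eq_of_mul_eq_one_right C.xx
  have hinv : x * r * x⁻¹ = r⁻¹ := by
    calc x * r * x⁻¹ = (x * x) * g * x⁻¹ * g⁻¹ * x⁻¹ := by rw [hr]; group
      _ = g * x * g⁻¹ * x⁻¹ := by rw [C.xx, one_mul, hxi]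
      _ = r⁻¹ := by rw [hr]; group
  have hrK : r ∈ fixTwo G (q 0) (q 1) :=
    mul_mem (mul_mem (mul_mem C.x_mem hg) (inv_mem C.x_mem)) (inv_mem hg)
  have hpos := orderOf_pos r
  have hw2 : orderOf (r ^ m) = 2 := by
    refine CfsgLib.Involutions.orderOf_eq_two_iff.2 ⟨?_, ?_⟩
    · rw [← pow_add, ← hm, pow_orderOf_eq_one]
    · exact pow_ne_one_of_lt_orderOf (by omega) (by omega)
  have hwc : Commute (r ^ m) x := by
    have h1 : x * r ^ m * x⁻¹ = (r ^ m)⁻¹ := by rw [← conj_pow, hinv, inv_pow]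
    rw [CfsgLib.Involutions.inv_eq_self hw2] at h1
    exact (mul_inv_eq_iff_eq_mul.1 h1).symm
  have hwx : r ^ m = x := C.eq_of_commute h8 (pow_mem hrK m) hw2 hwc
  have hrc : Commute x r := hwx ▸ (Commute.refl r).pow_left m
  have hr2 : r * r = 1 := by
    rw [hrc.eq, mul_inv_cancel_right] at hinv
    nth_rewrite 1 [hinv]
    exact inv_mul_cancel r
  have hd : orderOf r ∣ 2 := orderOf_dvd_of_pow_eq_one (by rw [pow_two, hr2])
  have hle := Nat.le_of_dvd two_pos hd
  obtain rfl : m = 1 := by omega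
  rw [pow_one, hr] at hwx
  have : g * x⁻¹ * g⁻¹ = 1 := by
    calc g * x⁻¹ * g⁻¹ = x⁻¹ * (x * g * x⁻¹ * g⁻¹) := by group
      _ = 1 := by rw [hwx, inv_mul_cancel]
  rw [mul_inv_eq_one] at this
  simp at this
  exact CfsgLib.Involutions.ne_one C.hx this

/-- The odd core of the two-point stabiliser is transitive on the remaining points. -/
theorem transitive_twoCore (h8 : 8 ≤ Fintype.card α) {e d : α} (he : e ≠ q 0 ∧ e ≠ q 1)
    (hd : d ≠ q 0 ∧ d ≠ q 1) : ∃ o ∈ twoCore G (q 0) (q 1), o e = d := by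
  have h01 := C.ne 0 1 (by decide)
  set K := fixTwo G (q 0) (q 1) with hK
  have hz : ∀ g ∈ K, x * g * x⁻¹ * g⁻¹ ∈ twoCore G (q 0) (q 1) := fun g hg =>
    ⟨_, CfsgLib.Involutions.zstar_theorem (G := ↥K)
      (by rw [← Subgroup.orderOf_coe]; exact C.hx) (C.oddComm h8) ⟨g, hg⟩, rfl⟩
  by_cases hmove : ∃ o ∈ twoCore G (q 0) (q 1), ∃ c, o c ≠ c
  · obtain ⟨o, ho, c, hc⟩ := hmove
    obtain ⟨-, ho0, ho1⟩ := mem_fixTwo.1 (twoCore_le _ _ ho)
    have hcT : c ≠ q 0 ∧ c ≠ q 1 :=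
      ⟨fun h => hc (by rw [h, ho0]), fun h => hc (by rw [h, ho1])⟩
    have hocT : o c ≠ q 0 ∧ o c ≠ q 1 :=
      ⟨fun h => hcT.1 (o.injective (h.trans ho0.symm)),
        fun h => hcT.2 (o.injective (h.trans ho1.symm))⟩
    have horb : ∀ t, t ≠ q 0 ∧ t ≠ q 1 → ∃ o' ∈ twoCore G (q 0) (q 1), o' c = t := by
      intro t ht
      rcases eq_or_ne t c with rfl | htc
      · exact ⟨1, one_mem _, rfl⟩
      obtain ⟨g, hg, hgc, hgo⟩ := C.quad.exists_fixTwo_map h01 hcT hocT hc.symm hcT ht htc.symm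
      refine ⟨g * o * g⁻¹, twoCore_conj (fun k hk => mul_mem (mul_mem hg hk) (inv_mem hg)) o ho, ?_⟩
      have : g⁻¹ c = c := by rw [Perm.inv_def, Equiv.symm_apply_eq, hgc]
      rw [Perm.mul_apply, Perm.mul_apply, this, hgo]
    obtain ⟨o₁, ho₁, rfl⟩ := horb e he
    obtain ⟨o₂, ho₂, rfl⟩ := horb d hd
    exact ⟨o₂ * o₁⁻¹, mul_mem ho₂ (inv_mem ho₁), by
      rw [Perm.mul_apply, Perm.inv_def, Equiv.symm_apply_apply]⟩
  · exfalso
    push Not at hmove
    obtain ⟨t, -, ht⟩ := Finset.exists_mem_notMem_of_card_lt_card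
      (s := Finset.univ.image q) (t := (Finset.univ : Finset α)) (by
        rw [Finset.card_image_of_injective _ C.inj, Finset.card_univ, Finset.card_univ,
          Fintype.card_fin]
        omega)
    have htq : ∀ i, t ≠ q i := fun i h =>
      ht (Finset.mem_image.2 ⟨i, Finset.mem_univ i, h.symm⟩)
    obtain ⟨g, hg, hg2, hg3⟩ := C.quad.exists_fixTwo_map h01
      (c := q 2) (c' := q 3) (d := q 2) (d' := t)
      ⟨C.ne _ _ (by decide), C.ne _ _ (by decide)⟩ ⟨C.ne _ _ (by decide), C.ne _ _ (by decide)⟩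
      (C.ne _ _ (by decide)) ⟨C.ne _ _ (by decide), C.ne _ _ (by decide)⟩ ⟨htq 0, htq 1⟩
      (fun h => htq 2 h.symm)
    have := hmove _ (hz g hg) (g (x (q 2)))
    have e1 : ∀ (σ : Perm α) (p : α), σ⁻¹ (σ p) = p := fun σ p => σ.symm_apply_apply p
    rw [Perm.mul_apply, Perm.mul_apply, Perm.mul_apply, e1, e1, hg2, C.x2, hg3] at this
    exact htq 3 this.symm

theorem card_orbit_twoCore (h8 : 8 ≤ Fintype.card α) {e : α} (he : e ≠ q 0 ∧ e ≠ q 1) :
    Nat.card (MulAction.orbit ↥(twoCore G (q 0) (q 1)) e) = Fintype.card α - 2 := by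
  have h : MulAction.orbit ↥(twoCore G (q 0) (q 1)) e = ↑(({q 0, q 1} : Finset α)ᶜ) := by
    refine Set.Subset.antisymm (orbit_subgroup_subset fun g hg => ?_) ?_
    · obtain ⟨-, h0, h1⟩ := mem_fixTwo.1 (twoCore_le _ _ hg)
      simp only [Finset.mem_compl, Finset.mem_insert, Finset.mem_singleton, not_or]
      exact ⟨fun h => he.1 (g.injective (h.trans h0.symm)),
        fun h => he.2 (g.injective (h.trans h1.symm))⟩
    · intro d hd
      simp only [Finset.mem_coe, Finset.mem_compl, Finset.mem_insert, Finset.mem_singleton,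
        not_or] at hd
      obtain ⟨o, ho, rfl⟩ := C.transitive_twoCore h8 he hd
      exact ⟨⟨o, ho⟩, rfl⟩
  rw [h, Nat.card_coe_set_eq, Set.ncard_coe_finset, Finset.card_compl,
    Finset.card_pair (C.ne 0 1 (by decide))]

theorem orbit_card_mem {S : Subgroup (Perm α)} (hS : Odd (Nat.card S)) {e : α} {w : Perm α}
    (hw : (fixSet w).card ≤ 3) (hSw : ∀ g ∈ S, g * w = w * g) (he : w e = e) :
    Nat.card (MulAction.orbit ↥S e) = 1 ∨
      (Nat.card (MulAction.orbit ↥S e) = 3 ∧ (fixSet w).card = 3) := by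
  have h1 : Nat.card (MulAction.orbit ↥S e) ≤ (fixSet w).card := by
    rw [Nat.card_coe_set_eq, ← Set.ncard_coe_finset]
    exact Set.ncard_le_ncard (orbit_subgroup_subset fun g hg =>
      apply_mem_fixSet (hSw g hg) (mem_fixSet.2 he)) (Set.toFinite _)
  obtain ⟨k, hk⟩ := hS.of_dvd_nat ⟨_, (card_orbit_mul_card_inf S e).symm⟩
  omega

/-- For degree at least `8`, the degree is `11` and `x * y` fixes three points. -/
theorem degree_eq (h8 : 8 ≤ Fintype.card α) :
    Fintype.card α = 11 ∧ (fixSet x).card = 3 ∧ (fixSet (x * y)).card = 3 := by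
  have h01 := C.ne 0 1 (by decide)
  set O := twoCore G (q 0) (q 1) with hO
  have hodd : Odd (Fintype.card α - 2) := by
    rw [← C.card_orbit_twoCore h8 (e := q 2) ⟨C.ne _ _ (by decide), C.ne _ _ (by decide)⟩]
    exact (odd_card_twoCore _ _).of_dvd_nat ⟨_, (card_orbit_mul_card_inf _ _).symm⟩
  have hx3 : (fixSet x).card = 3 := by
    have h1 := C.quad.card_fixSet_le C.hxG C.hx
    have h2 := C.two_le
    have h3 := card_fixSet_mod_two C.xx
    rw [Nat.odd_iff] at hodd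
    omega
  obtain ⟨e, he, hne⟩ := Finset.exists_mem_notMem_of_card_lt_card
    (s := ({q 0, q 1} : Finset α)) (t := fixSet x) (by rw [Finset.card_pair h01]; omega)
  simp only [Finset.mem_insert, Finset.mem_singleton, not_or] at hne
  have hxe : x e = e := mem_fixSet.1 he
  have hye : y e = e := C.outside (apply_mem_fixSet C.comm.symm he)
    (fun h => hne.2 (y.injective (by rw [h, C.y1])))
    (fun h => hne.1 (y.injective (by rw [h, C.y0]))) he hne.1 hne.2
  have hze : (x * y) e = e := by rw [Perm.mul_apply, hye, hxe]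
  have nx : ∀ g ∈ O, x * g * x⁻¹ ∈ O :=
    twoCore_conj fun g hg => mul_mem (mul_mem C.x_mem hg) (inv_mem C.x_mem)
  have ny : ∀ g ∈ O, y * g * y⁻¹ ∈ O := by
    refine twoCore_conj fun g hg => ?_
    obtain ⟨hgG, h0, h1⟩ := mem_fixTwo.1 hg
    have hyi : y⁻¹ = y := inv_eq_of_mul_eq_one_right C.yy
    refine mem_fixTwo.2 ⟨mul_mem (mul_mem C.hyG hgG) (inv_mem C.hyG), ?_, ?_⟩
    · rw [Perm.mul_apply, Perm.mul_apply, hyi, C.y0, h1, C.y1]
    · rw [Perm.mul_apply, Perm.mul_apply, hyi, C.y1, h0, C.y0]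
  set S := MulAction.stabilizer (Perm α) e with hS
  have nS : ∀ {a : Perm α}, a e = e → ∀ g ∈ S, a * g * a⁻¹ ∈ S := fun ha g hg =>
    mul_mem (mul_mem (by simpa [hS] using ha) hg) (inv_mem (by simpa [hS] using ha))
  have hodd' : Odd (Nat.card ↥(O ⊓ S)) :=
    (odd_card_twoCore _ _).of_dvd_nat (Subgroup.card_dvd_of_le inf_le_left)
  have F := card_mul_sq_eq (odd_card_twoCore (G := G) (q 0) (q 1)) C.xx C.yy C.comm nx ny
  have F' := card_mul_sq_eq hodd' C.xx C.yy C.comm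
    (fun g hg => Subgroup.mem_inf.2 ⟨nx g (Subgroup.mem_inf.1 hg).1, nS hxe g (Subgroup.mem_inf.1 hg).2⟩)
    (fun g hg => Subgroup.mem_inf.2 ⟨ny g (Subgroup.mem_inf.1 hg).1, nS hye g (Subgroup.mem_inf.1 hg).2⟩)
  have hcx : O ⊓ Subgroup.centralizer {x} ≤ S := by
    intro g hg
    obtain ⟨hgO, hgc⟩ := Subgroup.mem_inf.1 hg
    rw [Subgroup.mem_centralizer_singleton_iff] at hgc
    obtain ⟨-, h0, h1⟩ := mem_fixTwo.1 (twoCore_le _ _ hgO)
    exact C.outside (apply_mem_fixSet hgc he) (fun h => hne.1 (g.injective (h.trans h0.symm)))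
      (fun h => hne.2 (g.injective (h.trans h1.symm))) he hne.1 hne.2
  rw [inf_right_comm O S (Subgroup.centralizer {x}),
    inf_eq_left.2 hcx,
    inf_right_comm O S (Subgroup.centralizer {y}),
    inf_right_comm O S (Subgroup.centralizer {x * y})] at F'
  have eO := card_orbit_mul_card_inf O e
  rw [C.card_orbit_twoCore h8 hne] at eO
  have ey := card_orbit_mul_card_inf (O ⊓ Subgroup.centralizer {y}) e
  have ez := card_orbit_mul_card_inf (O ⊓ Subgroup.centralizer {x * y}) e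
  have hy' := C.orbit_card_mem (S := O ⊓ Subgroup.centralizer {y})
    ((odd_card_twoCore _ _).of_dvd_nat (Subgroup.card_dvd_of_le inf_le_left))
    (C.quad.card_fixSet_le C.hyG C.hy)
    (fun g hg => Subgroup.mem_centralizer_singleton_iff.1 (Subgroup.mem_inf.1 hg).2) hye
  have hz' := C.orbit_card_mem (S := O ⊓ Subgroup.centralizer {x * y})
    ((odd_card_twoCore _ _).of_dvd_nat (Subgroup.card_dvd_of_le inf_le_left))
    (C.quad.card_fixSet_le (mul_mem C.hxG C.hyG) C.orderOf_z)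
    (fun g hg => Subgroup.mem_centralizer_singleton_iff.1 (Subgroup.mem_inf.1 hg).2) hze
  rw [← eO, ← ey, ← ez] at F
  generalize Nat.card (MulAction.orbit ↥(O ⊓ Subgroup.centralizer {y}) e) = ky at F hy'
  generalize Nat.card (MulAction.orbit ↥(O ⊓ Subgroup.centralizer {x * y}) e) = kz at F hz'
  have hpos : 0 < Nat.card ↥(O ⊓ S) *
      Nat.card ↥(O ⊓ Subgroup.centralizer {x} ⊓ Subgroup.centralizer {y}) ^ 2 :=
    mul_pos Nat.card_pos (pow_pos Nat.card_pos 2)
  have hn : Fintype.card α - 2 = ky * kz := by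
    refine Nat.eq_of_mul_eq_mul_right hpos ?_
    linear_combination F - ky * kz * F'
  refine ⟨?_, hx3, ?_⟩
  · rcases hy' with rfl | ⟨rfl, -⟩ <;> rcases hz' with rfl | ⟨rfl, -⟩ <;> omega
  · rcases hz' with rfl | ⟨-, h⟩
    · rcases hy' with rfl | ⟨rfl, -⟩ <;> omega
    · exact h

end Config

end CfsgLib.FourTransitive
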