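/-
The small degrees and degree eleven in Jordan's theorem on four-fold transitive groups.
-/
import Cfsg.Agent.Lib.FourTransitive.OddCoreOrbit

set_option autoImplicit false
set_option linter.unusedSectionVars false

open Cfsg Equiv Equiv.Perm

namespace CfsgLib.FourTransitive

variable {α : Type*} [Fintype α] [DecidableEq α] {G : Subgroup (Perm α)}

theorem oddQuad_of_stabilizer (hG : MulAction.IsMultiplyPretransitive G α 4) (x : Fin 4 ↪ α)
    (hodd : Odd (Nat.card (MulAction.stabilizer G x))) : OddQuad G := by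
  haveI := hG
  have trans : ∀ a b : Fin 4 → α, Function.Injective a → Function.Injective b →
      ∃ g ∈ G, ∀ i, g (a i) = b i := by
    intro a b ha hb
    obtain ⟨⟨g, hg⟩, h⟩ := MulAction.exists_smul_eq G (⟨a, ha⟩ : Fin 4 ↪ α) ⟨b, hb⟩
    exact ⟨g, hg, fun i => congrArg (fun f : Fin 4 ↪ α => f i) h⟩
  refine ⟨trans, fun a g ha hg hga => ?_⟩
  obtain ⟨r, hr, hra⟩ := trans x a x.injective ha
  have hmem : (⟨r⁻¹ * g * r, mul_mem (mul_mem (inv_mem hr) hg) hr⟩ : ↥G) ∈
      MulAction.stabilizer G x := by
    rw [MulAction.mem_stabilizer_iff]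
    ext i
    show (r⁻¹ * g * r) (x i) = x i
    rw [Perm.mul_apply, Perm.mul_apply, hra, hga, Perm.inv_def, Equiv.symm_apply_eq, hra]
  have h1 := Subgroup.orderOf_dvd_natCard _ hmem
  rw [← Subgroup.orderOf_coe] at h1
  have h2 : orderOf (r⁻¹ * g * r) = orderOf g := by
    simpa using CfsgLib.Involutions.orderOf_conj r⁻¹ g
  rw [h2] at h1
  exact hodd.of_dvd_nat h1

theorem card_eq_mul (hG : MulAction.IsMultiplyPretransitive G α 4) (x : Fin 4 ↪ α) :
    Nat.card G = (Fintype.card α).descFactorial 4 * Nat.card (MulAction.stabilizer G x) := by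
  haveI : MulAction.IsPretransitive G (Fin 4 ↪ α) := hG
  rw [← Subgroup.card_mul_index (MulAction.stabilizer G x), mul_comm, MulAction.index_stabilizer]
  congr 1
  refine (congrArg Set.ncard (Set.eq_univ_of_forall fun y => ?_)).trans ?_
  · exact MulAction.exists_smul_eq G x y
  · rw [Set.ncard_univ, Nat.card_eq_fintype_card, Fintype.card_embedding_eq, Fintype.card_fin]

theorem card_stabilizer_dvd (x : Fin 4 ↪ α) :
    Nat.card (MulAction.stabilizer G x) ∣ (Fintype.card α - 4).factorial := by
  have key : ∀ g : MulAction.stabilizer G x, ∀ p, p ∈ Set.range x → ((g : G) : Perm α) p = p := by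
    rintro g _ ⟨i, rfl⟩
    exact congrArg (fun f : Fin 4 ↪ α => f i) g.2
  have hinj : ∀ g : MulAction.stabilizer G x, ∀ p, p ∉ Set.range x ↔
      ((g : G) : Perm α) p ∉ Set.range x := by
    intro g p
    refine not_congr ⟨fun h => by rwa [key g p h], fun h => ?_⟩
    rwa [← ((g : G) : Perm α).injective (key g _ h)]
  let φ : MulAction.stabilizer G x →* Perm {p : α // p ∉ Set.range x} :=
    { toFun := fun g => ((g : G) : Perm α).subtypePerm fun p => (hinj g p).symm
      map_one' := by ext; rfl
      map_mul' := fun a b => by ext; rfl }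
  have hφ : Function.Injective φ := by
    intro a b h
    refine Subtype.ext (Subtype.ext (Equiv.ext fun p => ?_))
    by_cases hp : p ∈ Set.range x
    · rw [key a p hp, key b p hp]
    · exact congrArg Subtype.val (Equiv.congr_fun h ⟨p, hp⟩)
  have h1 := Subgroup.card_dvd_of_injective φ hφ
  have hc : Nat.card {p : α // p ∉ Set.range x} = Fintype.card α - 4 := by
    rw [Nat.card_eq_fintype_card, Fintype.card_subtype_compl]
    congr 1
    exact (Fintype.card_congr (Equiv.ofInjective _ x.injective).symm).trans (Fintype.card_fin 4)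
  rwa [Nat.card_perm, hc] at h1

theorem eq_alternatingGroup_of_card {k : ℕ} (hn : (Fintype.card α).factorial = k * 2)
    (hk : Nat.card G = k) : G = alternatingGroup α := by
  apply Equiv.Perm.eq_alternatingGroup_of_index_eq_two
  have h := Subgroup.card_mul_index G
  rw [Nat.card_perm, Nat.card_eq_fintype_card (α := α), hn, hk] at h
  exact Nat.eq_of_mul_eq_mul_left (hk ▸ Nat.card_pos) h

/-- There is no subgroup of order `840` of the symmetric group of degree `7`. -/
theorem card_ne_840 (hn : Fintype.card α = 7) : Nat.card G ≠ 840 := by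
  intro hG
  haveI : Nontrivial α := Fintype.one_lt_card_iff_nontrivial.1 (by omega)
  haveI : IsSimpleGroup (alternatingGroup α) :=
    alternatingGroup.isSimpleGroup (by rw [Nat.card_eq_fintype_card]; omega)
  have hA : Nat.card (alternatingGroup α) = 2520 := by
    rw [nat_card_alternatingGroup, Nat.card_eq_fintype_card, hn]; rfl
  set K := G.subgroupOf (alternatingGroup α) with hK
  have hidx : K.index * 2 ≤ 12 := by
    have h1 : (G ⊓ alternatingGroup α).index ≤ G.index * (alternatingGroup α).index :=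
      Subgroup.index_inf_le
    have h2 := Subgroup.relIndex_mul_index (inf_le_right : G ⊓ alternatingGroup α ≤ _)
    rw [Subgroup.inf_relIndex_right] at h2
    have hi : G.index = 6 := by
      have h := Subgroup.card_mul_index G
      rw [Nat.card_perm, Nat.card_eq_fintype_card (α := α), hn, hG] at h
      simp only [Nat.factorial] at h
      omega
    rw [alternatingGroup.index_eq_two, hi] at h1
    rw [alternatingGroup.index_eq_two] at h2
    show G.relIndex (alternatingGroup α) * 2 ≤ 12
    omega
  rcases (MulAction.toPermHom (alternatingGroup α) (alternatingGroup α ⧸ K)).normal_ker.eq_bot_or_eq_top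
    with h | h
  · have h1 := Subgroup.card_dvd_of_injective _ ((MonoidHom.ker_eq_bot_iff _).1 h)
    rw [Nat.card_perm, ← Subgroup.index_eq_card, hA] at h1
    have h0 := Subgroup.index_ne_zero_of_finite (H := K)
    have : K.index ≤ 6 := by omega
    interval_cases K.index <;> norm_num [Nat.factorial] at h1
  · have htop : K = ⊤ := by
      refine eq_top_iff.2 fun a _ => ?_
      have ha : a ∈ (MulAction.toPermHom (alternatingGroup α) (alternatingGroup α ⧸ K)).ker := by
        rw [h]; trivial
      have := Equiv.congr_fun (MonoidHom.mem_ker.1 ha) ((1 : alternatingGroup α) : _ ⧸ K)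
      simp only [MulAction.toPermHom_apply, MulAction.toPerm_apply, Perm.one_apply] at this
      rw [MulAction.Quotient.smul_mk, smul_eq_mul, mul_one, QuotientGroup.eq] at this
      simpa using this
    rw [hK, Subgroup.subgroupOf_eq_top] at htop
    have := Nat.le_of_dvd Nat.card_pos (Subgroup.card_dvd_of_le htop)
    omega

namespace Config

variable {q : Fin 4 → α} {x y : Perm α} (C : Config G q x y)
include C

theorem quad_fix_moved {u : Perm α} (hfix : ∀ i, u (q i) = q i) :
    u.support.card + 4 ≤ Fintype.card α := by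
  have hsub : Finset.univ.image q ⊆ u.supportᶜ := by
    intro p hp
    obtain ⟨i, -, rfl⟩ := Finset.mem_image.1 hp
    simpa using hfix i
  have := Finset.card_le_card hsub
  rw [Finset.card_image_of_injective _ C.inj, Finset.card_univ, Fintype.card_fin,
    Finset.card_compl] at this
  have := u.support.card_le_univ
  omega

/-- `G` does not contain the alternating group. -/
theorem not_alternating (h8 : 8 ≤ Fintype.card α) : ¬ alternatingGroup α ≤ G := by
  intro hle
  have hcard : 4 ≤ (Finset.univ.image q)ᶜ.card := by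
    rw [Finset.card_compl, Finset.card_image_of_injective _ C.inj, Finset.card_univ, Fintype.card_fin]
    omega
  obtain ⟨t, ht, htc⟩ := Finset.exists_subset_card_eq hcard
  let v : Fin 4 → α := fun i => ((t.equivFin.trans (finCongr htc)).symm i : α)
  have hv : Function.Injective v := Subtype.val_injective.comp (Equiv.injective _)
  have hvq : ∀ i j, v i ≠ q j := fun i j h => by
    have := Finset.mem_compl.1 (ht ((t.equivFin.trans (finCongr htc)).symm i).2)
    exact this (Finset.mem_image.2 ⟨j, Finset.mem_univ j, h.symm⟩)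
  have hne : ∀ i j, i ≠ j → v i ≠ v j := fun i j h e => h (hv e)
  set d := swap (v 0) (v 1) * swap (v 2) (v 3) with hd
  have hdA : d ∈ G := hle (by
    rw [mem_alternatingGroup, hd, map_mul, sign_swap (hne _ _ (by decide)),
      sign_swap (hne _ _ (by decide))]
    rfl)
  have hdq : ∀ j, d (q j) = q j := fun j => by
    rw [hd, Perm.mul_apply, swap_apply_of_ne_of_ne (hvq 2 j).symm (hvq 3 j).symm,
      swap_apply_of_ne_of_ne (hvq 0 j).symm (hvq 1 j).symm]
  have hd2 : orderOf d = 2 := by
    refine CfsgLib.Involutions.orderOf_eq_two_iff.2 ⟨?_, fun h => ?_⟩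
    · have hc : Commute (swap (v 0) (v 1)) (swap (v 2) (v 3)) :=
        (Perm.Disjoint.commute (by
          intro p
          rcases eq_or_ne p (v 2) with rfl | h2
          · exact Or.inl (swap_apply_of_ne_of_ne (hne _ _ (by decide)) (hne _ _ (by decide)))
          rcases eq_or_ne p (v 3) with rfl | h3
          · exact Or.inl (swap_apply_of_ne_of_ne (hne _ _ (by decide)) (hne _ _ (by decide)))
          exact Or.inr (swap_apply_of_ne_of_ne h2 h3)))
      rw [hd, hc.symm.mul_mul_mul_comm, swap_mul_self, swap_mul_self, one_mul]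
    · have := congrArg (fun σ : Perm α => σ (v 0)) h
      simp only [hd, Perm.mul_apply, Perm.one_apply] at this
      rw [swap_apply_of_ne_of_ne (hne 0 2 (by decide)) (hne 0 3 (by decide)), swap_apply_left] at this
      exact hne 1 0 (by decide) this
  have := C.quad.odd q d C.inj hdA hdq
  rw [hd2] at this
  exact absurd this (by decide)

/-- In degree eleven an element of prime order fixing the quadruple is a product of two 3-cycles. -/
theorem support_card_eq_six (h11 : Fintype.card α = 11) (hprim : MulAction.IsPreprimitive G α)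
    {u : Perm α} (hu : u ∈ G) (hfix : ∀ i, u (q i) = q i) {p : ℕ} (hp : p.Prime)
    (hup : orderOf u = p) : p = 3 ∧ u.support.card = 6 := by
  have hsupp := C.quad_fix_moved hfix
  obtain ⟨k, hk⟩ := Equiv.Perm.cycleType_prime_order (hup.symm ▸ hp)
  rw [hup] at hk
  have hsum : u.support.card = (k + 1) * p := by
    rw [← Equiv.Perm.sum_cycleType, hk, Multiset.sum_replicate, smul_eq_mul]
  have hodd : p ≠ 2 := fun h2 => by
    have := C.quad.odd q u C.inj hu hfix
    rw [hup, h2] at this
    exact absurd this (by decide)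
  have h1 : k ≠ 0 := fun hk0 => by
    subst hk0
    have hcyc : u.IsCycle := by
      rw [← Equiv.Perm.card_cycleType_eq_one, hk]; rfl
    exact C.not_alternating (by omega) (Cfsg.Agent.S0713.result G hprim hp (by omega)
      (by omega) hcyc (by simpa using hsum) hu)
  have := hp.two_le
  have : p ≤ 3 := by
    by_contra hlt
    have : 2 * 4 ≤ (k + 1) * p := Nat.mul_le_mul (by omega) (by omega)
    omega
  obtain rfl : p = 3 := by omega
  omega

theorem fixed_unique (h11 : Fintype.card α = 11) (hprim : MulAction.IsPreprimitive G α)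
    {u : Perm α} (hu : u ∈ G) (hfix : ∀ i, u (q i) = q i) (hne : u ≠ 1)
    {a b : α} (ha : u a = a) (hb : u b = b) (haq : ∀ i, a ≠ q i) (hbq : ∀ i, b ≠ q i) : a = b := by
  by_contra hab
  have hd : orderOf u ≠ 1 := fun h => hne (orderOf_eq_one_iff.1 h)
  set p := (orderOf u).minFac
  have hp : p.Prime := Nat.minFac_prime hd
  set v := u ^ (orderOf u / p) with hv
  have hvord : orderOf v = p :=
    orderOf_pow_orderOf_div (orderOf_pos u).ne' (Nat.minFac_dvd _)
  have hfixv : ∀ {c : α}, u c = c → v c = c := fun {c} hc => by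
    have hs : u ∈ MulAction.stabilizer (Perm α) c := by simpa using hc
    simpa [hv] using pow_mem hs (orderOf u / p)
  have h6 := (C.support_card_eq_six h11 hprim (pow_mem hu _) (fun i => hfixv (hfix i)) hp hvord).2
  have hsub : insert a (insert b (Finset.univ.image q)) ⊆ v.supportᶜ := by
    intro c hc
    simp only [Finset.mem_insert, Finset.mem_image] at hc
    rw [Finset.mem_compl, notMem_support]
    rcases hc with rfl | rfl | ⟨i, -, rfl⟩
    exacts [hfixv ha, hfixv hb, hfixv (hfix i)]
  have := Finset.card_le_card hsub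
  rw [Finset.card_insert_of_notMem (by simp [hab, fun i => (haq i).symm]),
    Finset.card_insert_of_notMem (by simp [fun i => (hbq i).symm]),
    Finset.card_image_of_injective _ C.inj, Finset.card_univ, Fintype.card_fin,
    Finset.card_compl, h6, h11] at this
  omega

/-- In degree eleven the stabiliser of four points is trivial. -/
theorem eq_one_of_fix (h8 : 8 ≤ Fintype.card α) (hprim : MulAction.IsPreprimitive G α)
    {u₀ : Perm α} (hu₀ : u₀ ∈ G) (hfix₀ : ∀ i, u₀ (q i) = q i) : u₀ = 1 := by
  obtain ⟨h11, hx3, hz3⟩ := C.degree_eq h8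
  by_contra hne
  -- the stabiliser of the quadruple
  set S : Subgroup (Perm α) := G ⊓ ⨅ i, MulAction.stabilizer (Perm α) (q i) with hSdef
  have hmem : ∀ g, g ∈ S ↔ g ∈ G ∧ ∀ i, g (q i) = q i := fun g => by
    simp [hSdef, Subgroup.mem_iInf]
  have hS3 : IsPGroup 3 S := by
    refine IsPGroup.of_card (n := (Nat.card S).primeFactorsList.length) ?_
    refine Nat.eq_prime_pow_of_unique_prime_dvd Nat.card_pos.ne' (fun {r} hr hdvd => ?_)
    haveI := Fact.mk hr
    obtain ⟨v, hv⟩ := exists_prime_orderOf_dvd_card' (G := ↥S) r hdvd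
    exact (C.support_card_eq_six h11 hprim ((hmem _).1 v.2).1 ((hmem _).1 v.2).2 hr
      (by rw [Subgroup.orderOf_coe]; exact hv)).1
  haveI : Fact (Nat.Prime 3) := ⟨Nat.prime_three⟩
  -- a fixed point outside the quadruple
  obtain ⟨f, hfq, hf⟩ : ∃ f, (∀ i, f ≠ q i) ∧ ∀ g ∈ S, g f = f := by
    have h := hS3.card_modEq_card_fixedPoints α
    rw [Nat.card_eq_fintype_card, h11] at h
    by_contra hno
    push Not at hno
    have hset : MulAction.fixedPoints S α = Set.range q := by
      ext c
      constructor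
      · intro hc
        by_contra hcq
        obtain ⟨g, hg, hgc⟩ := hno c fun i e => hcq ⟨i, e.symm⟩
        exact hgc (hc ⟨g, hg⟩)
      · rintro ⟨i, rfl⟩ ⟨g, hg⟩
        exact ((hmem g).1 hg).2 i
    rw [hset, Nat.card_range_of_injective C.inj, Nat.card_eq_fintype_card, Fintype.card_fin] at h
    exact absurd h (by decide)
  have honly : ∀ g ∈ S, g ≠ 1 → ∀ c, g c = c → (∀ i, c ≠ q i) → c = f := fun g hg hg1 c hc hcq =>
    C.fixed_unique h11 hprim ((hmem g).1 hg).1 ((hmem g).1 hg).2 hg1 hc (hf g hg) hcq hfq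
  have hu₀S : u₀ ∈ S := (hmem _).2 ⟨hu₀, hfix₀⟩
  -- the stabiliser has order `3`
  have hS : Nat.card S = 3 := by
    obtain ⟨k, hk⟩ := IsPGroup.iff_card.1 hS3
    obtain ⟨c, -, hc⟩ := Finset.exists_mem_notMem_of_card_lt_card
      (s := insert f (Finset.univ.image q)) (t := (Finset.univ : Finset α)) (by
        have := Finset.card_insert_le f (Finset.univ.image q)
        rw [Finset.card_image_of_injective _ C.inj, Finset.card_univ, Fintype.card_fin] at this
        rw [Finset.card_univ]; omega)
    simp only [Finset.mem_insert, Finset.mem_image, Finset.mem_univ, true_and, not_or,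
      not_exists] at hc
    have hle : Nat.card S ≤ 6 := by
      rw [Nat.card_congr (Equiv.ofInjective (fun g : ↥S => (g : Perm α) c) ?_), Nat.card_coe_set_eq]
      · refine le_trans (Set.ncard_le_ncard (t := ↑((insert f (Finset.univ.image q))ᶜ)) ?_
          (Set.toFinite _)) ?_
        · rintro _ ⟨g, rfl⟩
          simp only [Finset.mem_coe, Finset.mem_compl, Finset.mem_insert, Finset.mem_image,
            Finset.mem_univ, true_and, not_or, not_exists]
          exact ⟨fun h => hc.1 ((g : Perm α).injective (h.trans (hf _ g.2).symm)),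
            fun i h => hc.2 i ((g : Perm α).injective
              ((((hmem _).1 g.2).2 i).trans h))⟩
        · rw [Set.ncard_coe_finset, Finset.card_compl, Finset.card_insert_of_notMem
            (by simp [fun i => (hfq i).symm]), Finset.card_image_of_injective _ C.inj,
            Finset.card_univ, Fintype.card_fin, h11]
      · intro a b (h : (a : Perm α) c = (b : Perm α) c)
        by_contra hab
        refine hc.1 (honly _ (mul_mem (inv_mem b.2) a.2) ?_ c ?_ fun i e => hc.2 i e.symm)
        · rw [ne_eq, inv_mul_eq_one]; exact fun e => hab (Subtype.ext e.symm)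
        · rw [Perm.mul_apply, h, Perm.inv_def, Equiv.symm_apply_apply]
    have hpos : Nat.card S ≠ 1 := fun h1 => hne (Subgroup.mem_bot.1
      ((Subgroup.eq_bot_of_card_eq S h1) ▸ hu₀S))
    rw [hk] at hle hpos ⊢
    rcases k with _ | _ | k
    · simp at hpos
    · rfl
    · exfalso
      have : 3 ^ 2 ≤ 3 ^ (k + 1 + 1) := Nat.pow_le_pow_right (by norm_num) (by omega)
      omega
  -- elements of `S` are powers of `u₀`; an element preserving the quadruple maps `u₀` to a power
  have hord : orderOf (⟨u₀, hu₀S⟩ : ↥S) = 3 := by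
    have h := orderOf_dvd_natCard (⟨u₀, hu₀S⟩ : ↥S)
    rw [hS] at h
    rcases (Nat.dvd_prime Nat.prime_three).1 h with h | h
    · exact absurd (congrArg Subtype.val (orderOf_eq_one_iff.1 h)) hne
    · exact h
  have hu3 : u₀ ^ 3 = 1 := by
    have := orderOf_dvd_iff_pow_eq_one.1 (dvd_of_eq hord)
    exact congrArg Subtype.val this
  have hpow : ∀ g ∈ S, ∃ k : ℕ, k < 3 ∧ g = u₀ ^ k := by
    intro g hg
    have : (⟨g, hg⟩ : ↥S) ∈ Subgroup.zpowers (⟨u₀, hu₀S⟩ : ↥S) := by
      rw [Subgroup.eq_top_of_card_eq (Subgroup.zpowers (⟨u₀, hu₀S⟩ : ↥S))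
        (by rw [Nat.card_zpowers, hord, hS])]
      trivial
    obtain ⟨k, hk, hkg⟩ : ∃ k, k < orderOf (⟨u₀, hu₀S⟩ : ↥S) ∧ (⟨u₀, hu₀S⟩ : ↥S) ^ k = ⟨g, hg⟩ := by
      rw [mem_zpowers_iff_mem_range_orderOf, Finset.mem_image] at this
      obtain ⟨k, hk, hkg⟩ := this
      exact ⟨k, Finset.mem_range.1 hk, hkg⟩
    exact ⟨k, hord ▸ hk, (congrArg Subtype.val hkg).symm⟩
  -- a four-cycle on the quadruple
  let s : Fin 4 → Fin 4 := ![2, 3, 1, 0]
  have hs : Function.Injective s := by decide
  obtain ⟨r, hr, hrq⟩ := C.quad.trans q (q ∘ s) C.inj (C.inj.comp hs)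
  have hrinv : ∀ i, r⁻¹ (q (s i)) = q i := fun i => by
    rw [Perm.inv_def, Equiv.symm_apply_eq, hrq]; rfl
  have hru : r * u₀ * r⁻¹ ∈ S := (hmem _).2 ⟨mul_mem (mul_mem hr hu₀) (inv_mem hr), fun i => by
    obtain ⟨j, rfl⟩ := (Finite.injective_iff_surjective.1 hs) i
    rw [Perm.mul_apply, Perm.mul_apply, hrinv, hfix₀, hrq]; rfl⟩
  have hrru : Commute (r * r) u₀ := by
    obtain ⟨k, hk, hk'⟩ := hpow _ hru
    have e : r * r * u₀ * (r * r)⁻¹ = u₀ ^ (k * k) := by
      calc r * r * u₀ * (r * r)⁻¹ = r * (r * u₀ * r⁻¹) * r⁻¹ := by group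
        _ = r * u₀ ^ k * r⁻¹ := by rw [hk']
        _ = (u₀ ^ k) ^ k := by rw [← conj_pow, hk']
        _ = u₀ ^ (k * k) := by rw [pow_mul]
    interval_cases k
    · exact absurd (show u₀ = 1 by simpa using hk') hne
    · exact mul_inv_eq_iff_eq_mul.1 (by simpa using e)
    · refine mul_inv_eq_iff_eq_mul.1 (e.trans ?_)
      rw [show 2 * 2 = 3 + 1 from rfl, pow_succ, hu3, one_mul]
  have hzS : (r * r)⁻¹ * (x * y) ∈ S := (hmem _).2
    ⟨mul_mem (inv_mem (mul_mem hr hr)) (mul_mem C.hxG C.hyG), fun i => by
      have hrr : ∀ i, (r * r) (q i) = q (s (s i)) := fun i => by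
        rw [Perm.mul_apply, hrq, Function.comp_apply, hrq]; rfl
      have hz : ∀ i, (x * y) (q i) = q (s (s i)) := by
        intro i; fin_cases i
        · show (x * y) (q 0) = q 1; rw [Perm.mul_apply, C.y0, C.x1]
        · show (x * y) (q 1) = q 0; rw [Perm.mul_apply, C.y1, C.x0]
        · show (x * y) (q 2) = q 3; rw [Perm.mul_apply, C.y2, C.x2]
        · show (x * y) (q 3) = q 2; rw [Perm.mul_apply, C.y3, C.x3]
      rw [Perm.mul_apply, hz, ← hrr, Perm.inv_def, Equiv.symm_apply_apply]⟩
  have hzu : Commute (x * y) u₀ := by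
    obtain ⟨k, -, hk⟩ := hpow _ hzS
    rw [show x * y = r * r * ((r * r)⁻¹ * (x * y)) by group, hk]
    exact hrru.mul_left ((Commute.refl u₀).pow_left k)
  -- the extra fixed point of `x`
  obtain ⟨e, he, hne'⟩ := Finset.exists_mem_notMem_of_card_lt_card
    (s := ({q 0, q 1} : Finset α)) (t := fixSet x)
    (by rw [Finset.card_pair (C.ne 0 1 (by decide))]; omega)
  simp only [Finset.mem_insert, Finset.mem_singleton, not_or] at hne'
  have hxe : x e = e := mem_fixSet.1 he
  have hxq : ∀ i, ∃ j, x (q i) = q j := by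
    intro i; fin_cases i
    exacts [⟨0, C.x0⟩, ⟨1, C.x1⟩, ⟨3, C.x2⟩, ⟨2, C.x3⟩]
  have hxi : x⁻¹ = x := inv_eq_of_mul_eq_one_right C.xx
  have hxuS : x * u₀ * x⁻¹ ∈ S :=
    (hmem _).2 ⟨mul_mem (mul_mem C.hxG hu₀) (inv_mem C.hxG), fun i => by
      obtain ⟨j, hj⟩ := hxq i
      rw [Perm.mul_apply, Perm.mul_apply, hxi, hj, hfix₀, ← hj, sq_apply C.xx]⟩
  have hfe : f = e := by
    have hxf : x f = f := by
      refine honly u₀ hu₀S hne (x f) ?_ fun i h => ?_
      · have := hf _ hxuS
        rw [Perm.mul_apply, Perm.mul_apply, hxi] at this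
        calc u₀ (x f) = x (x (u₀ (x f))) := (sq_apply C.xx _).symm
          _ = x f := by rw [this]
      · obtain ⟨j, hj⟩ := hxq i
        exact hfq j (x.injective (by rw [h, ← hj, sq_apply C.xx]))
    exact C.outside (mem_fixSet.2 hxf) (hfq 0) (hfq 1) he hne'.1 hne'.2
  -- `u₀` permutes the three fixed points of `x * y` and fixes only `e` among them
  have hye : y e = e := C.outside (apply_mem_fixSet C.comm.symm he)
    (fun h => hne'.2 (y.injective (by rw [h, C.y1])))
    (fun h => hne'.1 (y.injective (by rw [h, C.y0]))) he hne'.1 hne'.2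
  have hze : e ∈ fixSet (x * y) := by rw [mem_fixSet, Perm.mul_apply, hye, hxe]
  obtain ⟨a, ha, hae⟩ := Finset.exists_mem_notMem_of_card_lt_card
    (s := ({e} : Finset α)) (t := fixSet (x * y)) (by rw [Finset.card_singleton]; omega)
  rw [Finset.mem_singleton] at hae
  have hzq : ∀ i, q i ∉ fixSet (x * y) := by
    intro i; rw [mem_fixSet]; fin_cases i
    · show (x * y) (q 0) ≠ q 0; rw [Perm.mul_apply, C.y0, C.x1]; exact C.ne 1 0 (by decide)
    · show (x * y) (q 1) ≠ q 1; rw [Perm.mul_apply, C.y1, C.x0]; exact C.ne 0 1 (by decide)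
    · show (x * y) (q 2) ≠ q 2; rw [Perm.mul_apply, C.y2, C.x2]; exact C.ne 3 2 (by decide)
    · show (x * y) (q 3) ≠ q 3; rw [Perm.mul_apply, C.y3, C.x3]; exact C.ne 2 3 (by decide)
  have hue : u₀ e = e := hfe ▸ hf u₀ hu₀S
  have hmove : ∀ c ∈ fixSet (x * y), c ≠ e → u₀ c ≠ c := fun c hc hce h =>
    hce (hfe ▸ honly u₀ hu₀S hne c h fun i hi => hzq i (hi ▸ hc))
  have hb : u₀ a ∈ fixSet (x * y) := apply_mem_fixSet hzu.symm ha
  have hb' : u₀ (u₀ a) ∈ fixSet (x * y) := apply_mem_fixSet hzu.symm hb
  have hbe : u₀ a ≠ e := fun h => hae (u₀.injective (h.trans hue.symm))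
  have hbe' : u₀ (u₀ a) ≠ e := fun h => hbe (u₀.injective (h.trans hue.symm))
  have huuu : u₀ (u₀ (u₀ a)) = a := by
    have := congrArg (fun σ : Perm α => σ a) hu3
    simpa [pow_succ, Perm.mul_apply] using this
  have hba : u₀ (u₀ a) ≠ a := fun h => hmove a ha hae (by rwa [h] at huuu)
  have hsub : ({e, a, u₀ a, u₀ (u₀ a)} : Finset α) ⊆ fixSet (x * y) := by
    intro c hc
    simp only [Finset.mem_insert, Finset.mem_singleton] at hc
    rcases hc with rfl | rfl | rfl | rfl
    exacts [hze, ha, hb, hb']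
  have h4 := Finset.card_le_card hsub
  rw [Finset.card_insert_of_notMem (by simp [Ne.symm hae, hbe.symm, hbe'.symm]),
    Finset.card_insert_of_notMem (by simp [(hmove a ha hae).symm, hba.symm]),
    Finset.card_pair (hmove _ hb hbe).symm, hz3] at h4
  omega

end Config

end CfsgLib.FourTransitive
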